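import Cfsg.Agent.H21.OutTab
import Cfsg.Agent.H419.Spor.M12
import Cfsg.Agent.QTNorm.SporM12

/-!
# Task 2267 (helper509): `M12`, outer elements
-/

set_option autoImplicit false

namespace Cfsg.Agent.H21.OutM12

open Subgroup Cfsg
open Cfsg.Agent.SporadicA.GolayBase Cfsg.Agent.J4Type.CocodeMask Cfsg.Agent.H180.KMathieu
open Cfsg.Agent.SporadicA.GolayPerm hiding pcomp papp_pcomp
open Cfsg.Agent.H21.OutTab Cfsg.Agent.H21.OutTwo
open Cfsg.Agent.MTwelveType.SylowModel (hom hom_apply card_range_hom pA pB pC pD pA_mem pB_mem pC_mem pD_mem card_M12 bp)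
open scoped Pointwise

universe u

/-- the outer involution -/
def P0 : ℕ := 170585943028803588871535263060012485
/-- tables of the generators -/
def PA : ℕ := 443545303226168010762277884428128546
def PB : ℕ := 233064737567318185703340759218260256
def PC : ℕ := 440756651492795854549732852723417378
def PD : ℕ := 879738548807926419234310055455307020
/-- table of `x ↦ -1/x` -/
def PI : ℕ := 1795248432537898728475572672376535

def aA : M24 := ⟨pA, pA_mem⟩
def aB : M24 := ⟨pB, pB_mem⟩
def aC : M24 := ⟨pC, pC_mem⟩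
def aD : M24 := ⟨pD, pD_mem⟩
noncomputable def aI : M24 := ⟨projInv, H419.Spor.M12.I_mem⟩

theorem tA : IsTab aA PA := by
  have h : ∀ p : GolayPt, idx (pA p) = papp PA (idx p) := by decide +kernel
  exact h
theorem tB : IsTab aB PB := by
  have h : ∀ p : GolayPt, idx (pB p) = papp PB (idx p) := by decide +kernel
  exact h
theorem tC : IsTab aC PC := by
  have h : ∀ p : GolayPt, idx (pC p) = papp PC (idx p) := by decide +kernel
  exact h
theorem tD : IsTab aD PD := by
  have h : ∀ p : GolayPt, idx (pD p) = papp PD (idx p) := by decide +kernel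
  exact h
theorem tI : IsTab aI PI := by
  have h : ∀ p : GolayPt, idx (projInv p) = papp PI (idx p) := by decide +kernel
  exact h

theorem P0_ok : (isPerm P0 && isAut P0) = true := by decide +kernel

/-- the outer involution -/
noncomputable def c : M24 := mk P0 P0_ok

theorem tc : IsTab c P0 := isTab_mk P0 P0_ok

theorem c_mul : c * c = 1 := (isTab_eq_one_iff (tc.mul tc)).2 (by decide +kernel)

theorem c_A : c * aA * c = aA * aB ^ 2 :=
  ((tc.mul tA).mul tc).eq (by
    have h : pcomp (pcomp P0 PA) P0 = pcomp PA (tpow PB 2) := by decide +kernel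
    rw [h]
    exact tA.mul (isTab_pow tB 2))

theorem c_B : c * aB * c = aA ^ 2 * aB ^ 3 :=
  ((tc.mul tB).mul tc).eq (by
    have h : pcomp (pcomp P0 PB) P0 = pcomp (tpow PA 2) (tpow PB 3) := by decide +kernel
    rw [h]
    exact (isTab_pow tA 2).mul (isTab_pow tB 3))

theorem c_C : c * aC * c = aC :=
  ((tc.mul tC).mul tc).eq (by
    have h : pcomp (pcomp P0 PC) P0 = PC := by decide +kernel
    rw [h]
    exact tC)

theorem c_D : c * aD * c = aA ^ 2 * aB ^ 2 * (aC * aD) :=
  ((tc.mul tD).mul tc).eq (by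
    have h : pcomp (pcomp P0 PD) P0 = pcomp (pcomp (tpow PA 2) (tpow PB 2)) (pcomp PC PD) := by decide +kernel
    rw [h]
    exact ((isTab_pow tA 2).mul (isTab_pow tB 2)).mul (tC.mul tD))

/-- the Sylow 2-subgroup -/
noncomputable def T : Subgroup (Equiv.Perm GolayPt) := hom.range.map Spor.M12.subtype

/-- the elements of `T` -/
noncomputable def elt (i j : ℕ) (e d : Bool) : M24 := aA ^ i * aB ^ j * (bp aC e * bp aD d)

theorem mem_T_iff {t : Equiv.Perm GolayPt} : t ∈ T ↔ ∃ x : ClassificationK.GTwoModel.T (2 * 2),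
    t = (elt x.i.val x.j.val x.e x.d : M24) := by
  have key : ∀ x : ClassificationK.GTwoModel.T (2 * 2),
      ((hom x : Spor.M12) : Equiv.Perm GolayPt) = (elt x.i.val x.j.val x.e x.d : M24) := by
    intro x
    rw [hom_apply]
    unfold elt
    rcases x with ⟨i, j, e, d⟩
    cases e <;> cases d <;> rfl
  constructor
  · rintro ⟨_, ⟨x, rfl⟩, rfl⟩
    exact ⟨x, key x⟩
  · rintro ⟨x, rfl⟩
    exact ⟨hom x, ⟨x, rfl⟩, key x⟩

theorem elt_mem (i j : ℕ) (e d : Bool) : ((elt i j e d : M24) : Equiv.Perm GolayPt) ∈ T := by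
  have hA : ((aA : M24) : Equiv.Perm GolayPt) ∈ T := mem_T_iff.2 ⟨⟨1, 0, false, false⟩, by
    show ((aA : M24) : Equiv.Perm GolayPt) = (elt 1 0 false false : M24)
    unfold elt bp
    simp⟩
  have hB : ((aB : M24) : Equiv.Perm GolayPt) ∈ T := mem_T_iff.2 ⟨⟨0, 1, false, false⟩, by
    show ((aB : M24) : Equiv.Perm GolayPt) = (elt 0 1 false false : M24)
    unfold elt bp
    simp⟩
  have hC : ((aC : M24) : Equiv.Perm GolayPt) ∈ T := mem_T_iff.2 ⟨⟨0, 0, true, false⟩, by
    show ((aC : M24) : Equiv.Perm GolayPt) = (elt 0 0 true false : M24)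
    unfold elt bp
    simp⟩
  have hD : ((aD : M24) : Equiv.Perm GolayPt) ∈ T := mem_T_iff.2 ⟨⟨0, 0, false, true⟩, by
    show ((aD : M24) : Equiv.Perm GolayPt) = (elt 0 0 false true : M24)
    unfold elt bp
    simp⟩
  unfold elt
  cases e <;> cases d
  · exact mul_mem (mul_mem (pow_mem hA i) (pow_mem hB j)) (mul_mem (one_mem _) (one_mem _))
  · exact mul_mem (mul_mem (pow_mem hA i) (pow_mem hB j)) (mul_mem (one_mem _) hD)
  · exact mul_mem (mul_mem (pow_mem hA i) (pow_mem hB j)) (mul_mem hC (one_mem _))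
  · exact mul_mem (mul_mem (pow_mem hA i) (pow_mem hB j)) (mul_mem hC hD)

/-- the image of `T` in `M24` -/
noncomputable def T' : Subgroup M24 := T.comap (M24.subtype)

theorem mem_T' {g : M24} : g ∈ T' ↔ (g : Equiv.Perm GolayPt) ∈ T := Iff.rfl

theorem conj_mem {t : M24} (ht : t ∈ T') : c * t * c ∈ T' := by
  obtain ⟨⟨i, j, e, d⟩, hx⟩ := mem_T_iff.1 (mem_T'.1 ht)
  have hx' : t = elt i.val j.val e d := Subtype.ext hx
  have hA : aA ∈ T' := by
    have := elt_mem 1 0 false false
    have e1 : elt 1 0 false false = aA := by unfold elt bp; simp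
    rwa [e1] at this
  have hB : aB ∈ T' := by
    have := elt_mem 0 1 false false
    have e1 : elt 0 1 false false = aB := by unfold elt bp; simp
    rwa [e1] at this
  have hC : aC ∈ T' := by
    have := elt_mem 0 0 true false
    have e1 : elt 0 0 true false = aC := by unfold elt bp; simp
    rwa [e1] at this
  have hD : aD ∈ T' := by
    have := elt_mem 0 0 false true
    have e1 : elt 0 0 false true = aD := by unfold elt bp; simp
    rwa [e1] at this
  have hcc : c⁻¹ = c := inv_eq_of_mul_eq_one_left c_mul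
  have hconj : ∀ z : M24, c * z * c = MulAut.conj c z := by
    intro z
    rw [MulAut.conj_apply, hcc]
  have hcA : MulAut.conj c aA ∈ T' := by
    rw [← hconj, c_A]
    exact mul_mem hA (pow_mem hB 2)
  have hcB : MulAut.conj c aB ∈ T' := by
    rw [← hconj, c_B]
    exact mul_mem (pow_mem hA 2) (pow_mem hB 3)
  have hcC : MulAut.conj c aC ∈ T' := by
    rw [← hconj, c_C]
    exact hC
  have hcD : MulAut.conj c aD ∈ T' := by
    rw [← hconj, c_D]
    exact mul_mem (mul_mem (pow_mem hA 2) (pow_mem hB 2)) (mul_mem hC hD)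
  rw [hconj, hx']
  unfold elt
  rw [map_mul, map_mul, map_mul, map_pow, map_pow]
  refine mul_mem (mul_mem (pow_mem hcA _) (pow_mem hcB _)) (mul_mem ?_ ?_)
  · cases e
    · show MulAut.conj c 1 ∈ T'
      rw [map_one]
      exact one_mem _
    · exact hcC
  · cases d
    · show MulAut.conj c 1 ∈ T'
      rw [map_one]
      exact one_mem _
    · exact hcD

/-- the table of an element of `T` -/
def tabX (i j : ℕ) (e d : Bool) : ℕ :=
  pcomp (pcomp (tpow PA i) (tpow PB j)) (pcomp (bif e then PC else pone) (bif d then PD else pone))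

theorem isTab_elt (i j : ℕ) (e d : Bool) : IsTab (elt i j e d) (tabX i j e d) := by
  unfold elt tabX
  refine ((isTab_pow tA i).mul (isTab_pow tB j)).mul (IsTab.mul ?_ ?_)
  · cases e
    · exact isTab_one
    · exact tC
  · cases d
    · exact isTab_one
    · exact tD

/-- the two elements of `M12` -/
def ks : List (ℕ × ℕ) := [(318650006614859937936754324877613449, 228069927931947659287963754300875332),
  (648151941248861325546728954652564044, 796341515780511407864095148650836070)]

theorem ks_valid : valid ks = true := by decide +kernel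

theorem ks_D : (ks.all fun k => Nat.beq (pimg k.1 Cfsg.Agent.H180.KMathieu.D) Cfsg.Agent.H180.KMathieu.D) = true := by decide +kernel

theorem hks : ∀ k ∈ ks, ∃ g h : M24, IsTab g k.1 ∧ IsTab h k.2 ∧ g * h = 1 ∧ (g : Equiv.Perm GolayPt) ∈ Spor.M12 := by
  intro k hk
  obtain ⟨h1, h2, h3⟩ := of_valid ks_valid hk
  have h4 := ks_D
  rw [List.all_eq_true] at h4
  exact ⟨_, _, isTab_mk _ h1, isTab_mk _ h2, h3, mem_M12 h1 (Nat.eq_of_beq_eq_true (h4 k hk))⟩

theorem test_ok : ((List.range 4).all fun i => (List.range 4).all fun j => [false, true].all fun e =>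
    [false, true].all fun d => test ks (pcomp (tabX i j e d) P0)) = true := by
  decide +kernel

theorem test_elt (i j : ZMod (2 * 2)) (e d : Bool) : test ks (pcomp (tabX i.val j.val e d) P0) = true := by
  have h := test_ok
  rw [List.all_eq_true] at h
  have h1 := h i.val (List.mem_range.2 (ZMod.val_lt i))
  rw [List.all_eq_true] at h1
  have h2 := h1 j.val (List.mem_range.2 (ZMod.val_lt j))
  rw [List.all_eq_true] at h2
  have h3 := h2 e (by cases e <;> simp)
  rw [List.all_eq_true] at h3
  exact h3 d (by cases d <;> simp)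

theorem mem_M12_of_tab {g : M24} {P : ℕ} (hg : IsTab g P) (h : (isPerm P && isAut P) = true)
    (h1 : pimg P Cfsg.Agent.H180.KMathieu.D = Cfsg.Agent.H180.KMathieu.D) : (g : Equiv.Perm GolayPt) ∈ Spor.M12 := by
  have h2 : g = mk P h := hg.eq (isTab_mk P h)
  rw [h2]
  exact mem_M12 h h1

theorem Ic_mem : ((aI * c : M24) : Equiv.Perm GolayPt) ∈ Spor.M12 :=
  mem_M12_of_tab (tI.mul tc) (by decide +kernel) (by decide +kernel)

/-- **The outer row `M12`.** -/
theorem outrow_m12 {G : Type u} [Group G] [Finite G] {L : Subgroup G} (h : Cfsg.Spor.IsoM12 L) {x : G}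
    (C : Cfsg.Agent.H509.TwoFrame.Ctx 2 L x) (hx : x ∉ L) (h2 : 2 ∣ orderOf x) : False := by
  obtain ⟨e⟩ := h
  have hfin : Finite Spor.M12 := Finite.of_equiv L e.toEquiv
  have hTK : T ≤ Spor.M12 := map_subtype_le _
  have hTs : T.subgroupOf Spor.M12 = hom.range := comap_map_eq_self_of_injective Spor.M12.subtype_injective _
  have hT2 : IsPGroup 2 hom.range := IsPGroup.of_card (n := 6) (by rw [card_range_hom]; norm_num)
  have hcc : ((c : M24) : Equiv.Perm GolayPt) * c = 1 := congrArg Subtype.val c_mul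
  refine false_of_model C h2 hx e hTK (hT2.map _) ?_ (QTNorm.selfN_m12 ⟨MulEquiv.refl _⟩) hcc ?_ ?_ ?_
  · rw [hTs]
    have h1 := card_mul_index (hom.range)
    rw [card_range_hom, card_M12] at h1
    omega
  · intro t ht
    obtain ⟨x, rfl⟩ := mem_T_iff.1 ht
    exact conj_mem (t := elt x.i.val x.j.val x.e x.d) (mem_T'.2 (elt_mem _ _ _ _))
  · intro α
    rcases H419.Spor.M12.mem_or α with ⟨m, rfl⟩ | ⟨m, rfl⟩
    · exact Or.inl ⟨m, m.2, fun k => rfl⟩
    · right
      refine ⟨m * (aI * c : M24), mul_mem m.2 Ic_mem, fun k => ?_⟩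
      have e1 : (m : Equiv.Perm GolayPt) * (aI * c : M24) * c = m * projInv := by
        have e2 : ((aI * c : M24) : Equiv.Perm GolayPt) = projInv * c := rfl
        rw [e2, mul_assoc, mul_assoc, hcc, mul_one]
      rw [e1]
      change (m : Equiv.Perm GolayPt) * (projInv * k * projInv⁻¹) * (m : Equiv.Perm GolayPt)⁻¹ = _
      group
  · intro t ht
    obtain ⟨x, rfl⟩ := mem_T_iff.1 ht
    exact of_test hks ((isTab_elt _ _ _ _).mul tc) (test_elt x.i x.j x.e x.d)

end Cfsg.Agent.H21.OutM12
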