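import Cfsg.Agent.H190.Exc.Sec
import Cfsg.Agent.H934.HeisTwF4

/-!
# An elementary abelian subgroup of order `q^5` of `²F₄(q)`
-/

set_option autoImplicit false

namespace Cfsg.Agent.H21.RankTwF

open Cfsg.Lie Cfsg.Agent.H190.Exc Cfsg.Agent.H934.HeisTwF4
open Cfsg.Agent.ChevalleyStructure.TwF4.TwistedFix

universe u

theorem tf4_rank' {K : Type u} [Field K] [Fintype K] {m : ℕ} (hK : Fintype.card K = 2 ^ (2 * m + 1))
    {k : ℕ} (h : SecRank ↥(twistedF4 K (2 ^ m)) 2 k) : 5 * (2 * m + 1) ≤ k := by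
  have hp : Fact (Nat.Prime 2) := ⟨Nat.prime_two⟩
  haveI : CharP K 2 := charP_of_card_eq_prime_pow hK
  obtain ⟨φ, hφ⟩ := exists_rln hK
  let S := Cfsg.Agent.KFacts.TwF4.Inst.full hK hφ
  have h1 : Nat.card ↥(i5 S).range ≤ 2 ^ k := by
    refine h.le_of_sub _ ?_ ?_
    · rintro _ ⟨a, rfl⟩ _ ⟨b, rfl⟩
      rw [← map_mul, ← map_mul, mul_comm]
    · rintro _ ⟨a, rfl⟩
      rw [← map_pow]
      have h2 : a ^ 2 = 1 := by
        funext i
        have h3 : (Multiplicative.toAdd (a i)) + (Multiplicative.toAdd (a i)) = 0 := CharTwo.add_self_eq_zero _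
        rw [pow_two]
        exact h3
      rw [h2, map_one]
  have h2 : Nat.card ↥(i5 S).range = 2 ^ (5 * (2 * m + 1)) := by
    rw [← Nat.card_congr (MonoidHom.ofInjective (i5_inj S)).toEquiv]
    have h3 : Nat.card (E5 K) = Nat.card (Fin 5 → K) := Nat.card_congr (Equiv.refl _)
    rw [h3, Nat.card_fun, Nat.card_eq_fintype_card, Nat.card_eq_fintype_card, hK, Fintype.card_fin, ← pow_mul]
    ring_nf
  rw [h2] at h1
  exact (Nat.pow_le_pow_iff_right (by norm_num)).1 h1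

/-- **The rank of `²F₄(q)`.** -/
theorem tf4_rank {K : Type u} [Field K] [Fintype K] {m : ℕ} (_hm : 1 ≤ m) (hK : Fintype.card K = 2 ^ (2 * m + 1))
    {k : ℕ} (h : SecRank ↥(twistedF4 K (2 ^ m)) 2 k) : 4 * (2 * m + 1) ≤ k :=
  (Nat.mul_le_mul_right _ (by norm_num)).trans (tf4_rank' hK h)

end Cfsg.Agent.H21.RankTwF
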